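import Mathlib

/-!
# Abstract Golay codes: self-dual binary codes of length 24 and minimum weight at least 8

`Code C` packages the hypotheses. Main results: self-duality `Code.perp`, the number of words with
prescribed ones on a set of at most 7 coordinates `Code.count_ones`, the weight distribution.
-/

set_option autoImplicit false

namespace Cfsg.Agent.Lib.AbsGolay

open Finset

abbrev V := Fin 24 → ZMod 2

structure Code (C : Submodule (ZMod 2) V) : Prop where
  dim : Module.finrank (ZMod 2) C = 12
  orth : ∀ v ∈ C, ∀ w ∈ C, ∑ i, v i * w i = 0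
  min : ∀ w ∈ C, w ≠ 0 → 8 ≤ hammingNorm w

/-- The dot product as a bilinear form. -/
noncomputable def dotB : LinearMap.BilinForm (ZMod 2) V :=
  LinearMap.mk₂ (ZMod 2) (fun u v => ∑ i, u i * v i)
    (by intro a b c; simp [add_mul, Finset.sum_add_distrib])
    (by intro r a b; simp [Finset.mul_sum, mul_assoc])
    (by intro a b c; simp [mul_add, Finset.sum_add_distrib])
    (by intro r a b; simp [Finset.mul_sum, mul_left_comm])

theorem dotB_apply (u v : V) : dotB u v = ∑ i, u i * v i := rfl

theorem dotB_nondeg : (dotB).Nondegenerate := by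
  have hsep : ∀ u : V, (∀ v : V, dotB u v = 0) → u = 0 := by
    intro u hu
    funext i
    have := hu (Pi.single i 1)
    rw [dotB_apply] at this
    simpa [Finset.sum_eq_single i, Pi.single_apply] using this
  have hsym : ∀ u v : V, dotB u v = dotB v u := by
    intro u v
    simp only [dotB_apply, mul_comm]
  refine ⟨hsep, ?_⟩
  intro u hu
  exact hsep u (fun v => by rw [hsym]; exact hu v)

/-- Self-duality: a word orthogonal to `C` lies in `C`. -/
theorem Code.perp {C : Submodule (ZMod 2) V} (h : Code C) {u : V}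
    (hu : ∀ c ∈ C, ∑ i, u i * c i = 0) : u ∈ C := by
  have hle : C ≤ dotB.orthogonal C := by
    intro x hx
    rw [LinearMap.BilinForm.mem_orthogonal_iff]
    intro n hn
    show dotB n x = 0
    rw [dotB_apply]
    exact h.orth n hn x hx
  have hfr : Module.finrank (ZMod 2) (dotB.orthogonal C) = 12 := by
    rw [LinearMap.BilinForm.finrank_orthogonal dotB_nondeg, h.dim]
    simp [Module.finrank_fintype_fun_eq_card]
  have heq : C = dotB.orthogonal C := Submodule.eq_of_le_of_finrank_eq hle (by rw [h.dim, hfr])
  rw [heq, LinearMap.BilinForm.mem_orthogonal_iff]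
  intro n hn
  show dotB n u = 0
  rw [dotB_apply]
  have := hu n hn
  simpa [mul_comm] using this

theorem ne_zero_iff_eq_one (x : ZMod 2) : x ≠ 0 ↔ x = 1 := by
  revert x; decide

/-- The support of a word. -/
def sup (u : V) : Finset (Fin 24) := univ.filter fun i => u i ≠ 0

theorem card_sup (u : V) : (sup u).card = hammingNorm u := rfl

theorem mem_sup {u : V} {i : Fin 24} : i ∈ sup u ↔ u i = 1 := by
  simp only [sup, mem_filter, mem_univ, true_and, ne_zero_iff_eq_one]

theorem word_ext_sup {u v : V} (h : sup u = sup v) : u = v := by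
  funext i
  by_cases hi : i ∈ sup u
  · have h2 : i ∈ sup v := h ▸ hi
    rw [mem_sup.mp hi, mem_sup.mp h2]
  · have h2 : i ∉ sup v := h ▸ hi
    simp only [sup, mem_filter, mem_univ, true_and, not_not] at hi h2
    rw [hi, h2]

/-- The weight of a sum. -/
theorem norm_add (u v : V) :
    hammingNorm (u + v) + 2 * (sup u ∩ sup v).card = hammingNorm u + hammingNorm v := by
  have h1 : sup (u + v) = (sup u \ sup v) ∪ (sup v \ sup u) := by
    ext i
    simp only [mem_union, mem_sdiff, mem_sup, Pi.add_apply]
    have : ∀ x y : ZMod 2, (x + y = 1) ↔ (x = 1 ∧ ¬ y = 1 ∨ y = 1 ∧ ¬ x = 1) := by decide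
    exact this _ _
  have h2 : Disjoint (sup u \ sup v) (sup v \ sup u) := by
    rw [Finset.disjoint_left]
    intro i hi hi'
    exact (mem_sdiff.mp hi).2 (mem_sdiff.mp hi').1
  have h3 := Finset.card_sdiff_add_card_inter (sup u) (sup v)
  have h4 := Finset.card_sdiff_add_card_inter (sup v) (sup u)
  rw [Finset.inter_comm] at h4
  rw [← card_sup, ← card_sup, ← card_sup, h1, Finset.card_union_of_disjoint h2]
  omega

theorem Code.self_even {C : Submodule (ZMod 2) V} (h : Code C) {c : V} (hc : c ∈ C) :
    2 ∣ hammingNorm c := by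
  have h1 := h.orth c hc c hc
  have h2 : ∑ i, c i * c i = ((hammingNorm c : ℕ) : ZMod 2) := by
    rw [← card_sup, sup, Finset.card_filter]
    push_cast
    refine Finset.sum_congr rfl fun i _ => ?_
    have : ∀ x : ZMod 2, x * x = if x ≠ 0 then 1 else 0 := by decide
    exact this _
  rw [h2] at h1
  exact (ZMod.natCast_eq_zero_iff _ _).mp h1

/-- The all-ones word lies in `C`. -/
theorem Code.ones_mem {C : Submodule (ZMod 2) V} (h : Code C) : (fun _ => 1 : V) ∈ C := by
  apply h.perp
  intro c hc
  have h1 := h.self_even hc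
  have h2 : ∑ i, (1 : ZMod 2) * c i = ((hammingNorm c : ℕ) : ZMod 2) := by
    rw [← card_sup, sup, Finset.card_filter]
    push_cast
    refine Finset.sum_congr rfl fun i _ => ?_
    have : ∀ x : ZMod 2, 1 * x = if x ≠ 0 then 1 else 0 := by decide
    exact this _
  rw [h2]
  exact (ZMod.natCast_eq_zero_iff _ _).mpr h1

/-- Restriction to a set of coordinates is onto when the set is small. -/
theorem Code.restrict_surj {C : Submodule (ZMod 2) V} (h : Code C) (T : Finset (Fin 24))
    (hT : T.card ≤ 7) :
    Function.Surjective ((LinearMap.funLeft (ZMod 2) (ZMod 2) (Subtype.val : T → Fin 24)) ∘ₗ C.subtype) := by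
  classical
  by_contra hns
  set π := (LinearMap.funLeft (ZMod 2) (ZMod 2) (Subtype.val : T → Fin 24)) ∘ₗ C.subtype with hπ
  have hlt : LinearMap.range π < ⊤ := by
    rw [lt_top_iff_ne_top]
    intro htop
    exact hns (LinearMap.range_eq_top.mp htop)
  obtain ⟨f, hf, hker⟩ := Submodule.exists_le_ker_of_lt_top _ hlt
  -- the word u
  let u : V := fun i => if h : i ∈ T then f (Pi.single ⟨i, h⟩ 1) else 0
  have hfexp : ∀ x : T → ZMod 2, f x = ∑ t : T, x t * f (Pi.single t 1) := by
    intro x
    have := LinearMap.pi_apply_eq_sum_univ f x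
    rw [this]
    refine Finset.sum_congr rfl fun t _ => ?_
    rw [smul_eq_mul]
    congr 2
    funext s
    simp only [Pi.single_apply, eq_comm]
  have hu : ∀ c ∈ C, ∑ i, u i * c i = 0 := by
    intro c hc
    have h0 : f (π ⟨c, hc⟩) = 0 := hker (LinearMap.mem_range_self π ⟨c, hc⟩)
    rw [hfexp] at h0
    rw [← h0]
    have h2 : ∑ i, u i * c i = ∑ i ∈ T, u i * c i := by
      symm
      apply Finset.sum_subset (Finset.subset_univ T)
      intro i _ hi
      simp [u, hi]
    rw [h2, ← Finset.sum_coe_sort T]
    refine Finset.sum_congr rfl fun t _ => ?_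
    have ht : (t : Fin 24) ∈ T := t.2
    simp only [u, ht, dite_true]
    rw [mul_comm]
    rfl
  have huC : u ∈ C := h.perp hu
  have hune : u ≠ 0 := by
    intro h0
    apply hf
    apply LinearMap.ext
    intro x
    rw [hfexp]
    simp only [LinearMap.zero_apply]
    apply Finset.sum_eq_zero
    intro t _
    have h1 : u t = 0 := by rw [h0]; rfl
    have ht : (t : Fin 24) ∈ T := t.2
    simp only [u, ht, dite_true] at h1
    have : f (Pi.single t 1) = 0 := h1
    simp [this]
  have hmin := h.min u huC hune
  have hsub : sup u ⊆ T := by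
    intro i hi
    by_contra hiT
    have : u i = 1 := mem_sup.mp hi
    simp [u, hiT] at this
  have := Finset.card_le_card hsub
  rw [card_sup] at this
  omega

/-- Set of words of `C` as a finset. -/
noncomputable def wset (C : Submodule (ZMod 2) V) : Finset V := by
  classical exact univ.filter (· ∈ C)

theorem mem_wset {C : Submodule (ZMod 2) V} {c : V} : c ∈ wset C ↔ c ∈ C := by
  classical
  simp [wset]

theorem Code.card_wset {C : Submodule (ZMod 2) V} (h : Code C) : (wset C).card = 4096 := by
  classical
  have h1 : Nat.card C = 2 ^ 12 := by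
    rw [Module.natCard_eq_pow_finrank (K := ZMod 2), h.dim, Nat.card_zmod]
  have h2 : (wset C).card = Nat.card C := by
    rw [Nat.card_eq_fintype_card, Fintype.card_subtype]
    simp [wset]
  rw [h2, h1]; norm_num

/-- The number of words of `C` with ones on `T`, for `|T| ≤ 7`. -/
theorem Code.count_ones {C : Submodule (ZMod 2) V} (h : Code C) (T : Finset (Fin 24))
    (hT : T.card ≤ 7) :
    ((wset C).filter fun c => T ⊆ sup c).card * 2 ^ T.card = 4096 := by
  classical
  set π := (LinearMap.funLeft (ZMod 2) (ZMod 2) (Subtype.val : T → Fin 24)) ∘ₗ C.subtype with hπ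
  have hsurj : Function.Surjective π := h.restrict_surj T hT
  let F : (↥C) →+ (T → ZMod 2) := π.toAddMonoidHom
  have hsurjF : Function.Surjective F := hsurj
  have hfib : ∀ y : T → ZMod 2, (univ.filter fun c : C => F c = y).card
      = (univ.filter fun c : C => F c = (fun _ => 1)).card := by
    intro y
    exact AddMonoidHom.card_fiber_eq_of_mem_range F (hsurjF y) (hsurjF _)
  have htot : ∑ y : T → ZMod 2, (univ.filter fun c : C => F c = y).card = Fintype.card C := by
    rw [← Finset.card_univ (α := C)]
    exact (Finset.card_eq_sum_card_fiberwise (fun _ _ => Finset.mem_coe.mpr (Finset.mem_univ _))).symm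
  have hC : Fintype.card C = 4096 := by
    rw [← h.card_wset, ← Nat.card_eq_fintype_card]
    rw [Nat.card_eq_fintype_card, Fintype.card_subtype]
    simp [wset]
  have hone : (univ.filter fun c : C => F c = (fun _ => 1)).card
      = ((wset C).filter fun c => T ⊆ sup c).card := by
    rw [← Finset.card_map (Function.Embedding.subtype _)]
    congr 1
    ext c
    simp only [mem_map, mem_filter, mem_univ, true_and, Function.Embedding.coe_subtype, mem_wset]
    constructor
    · rintro ⟨x, hx, rfl⟩
      refine ⟨x.2, fun i hi => ?_⟩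
      have := congrFun hx ⟨i, hi⟩
      exact mem_sup.mpr this
    · rintro ⟨hc, hsub⟩
      refine ⟨⟨c, hc⟩, ?_, rfl⟩
      funext t
      exact mem_sup.mp (hsub t.2)
  simp only [hfib] at htot
  rw [Finset.sum_const, Finset.card_univ, hC, hone] at htot
  have hcard : Fintype.card (T → ZMod 2) = 2 ^ T.card := by
    simp [ZMod.card]
  rw [hcard] at htot
  rw [← htot, smul_eq_mul, mul_comm]

/-- The binomial moments of the weights. -/
theorem Code.moment {C : Submodule (ZMod 2) V} (h : Code C) (t : ℕ) (ht : t ≤ 7) :
    (∑ c ∈ wset C, (hammingNorm c).choose t) * 2 ^ t = (24 : ℕ).choose t * 4096 := by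
  classical
  have h1 : ∀ c ∈ wset C, (hammingNorm c).choose t
      = ((powersetCard t (univ : Finset (Fin 24))).filter fun T => T ⊆ sup c).card := by
    intro c _
    rw [← card_sup, ← Finset.card_powersetCard]
    congr 1
    ext T
    simp only [mem_powersetCard, mem_filter, subset_univ, true_and]
    tauto
  rw [Finset.sum_congr rfl h1]
  have h2 : ∑ c ∈ wset C, ((powersetCard t (univ : Finset (Fin 24))).filter fun T => T ⊆ sup c).card
      = ∑ T ∈ powersetCard t (univ : Finset (Fin 24)), ((wset C).filter fun c => T ⊆ sup c).card :=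
    Finset.sum_card_bipartiteAbove_eq_sum_card_bipartiteBelow _
  rw [h2, Finset.sum_mul]
  have h3 : ∀ T ∈ powersetCard t (univ : Finset (Fin 24)),
      ((wset C).filter fun c => T ⊆ sup c).card * 2 ^ t = 4096 := by
    intro T hT
    have hc : T.card = t := (mem_powersetCard.mp hT).2
    have := h.count_ones T (by omega)
    rwa [hc] at this
  rw [Finset.sum_congr rfl h3, Finset.sum_const, Finset.card_powersetCard, smul_eq_mul]
  simp

/-- All weights are in the list `0, 8, 10, 12, 14, 16, 24`. -/
theorem Code.weight_list {C : Submodule (ZMod 2) V} (h : Code C) {c : V} (hc : c ∈ C) :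
    hammingNorm c ∈ ({0, 8, 10, 12, 14, 16, 24} : Finset ℕ) := by
  have he := h.self_even hc
  have hle : hammingNorm c ≤ 24 := by
    rw [← card_sup]
    simpa using Finset.card_le_univ (sup c)
  by_cases h0 : c = 0
  · simp [h0]
  have h8 := h.min c hc h0
  have hone := h.ones_mem
  have hcomp : (fun _ => 1 : V) + c ∈ C := C.add_mem hone hc
  by_cases h1 : (fun _ => 1 : V) + c = 0
  · have : hammingNorm c = 24 := by
      have hc1 : c = fun _ => 1 := by
        funext i
        have := congrFun h1 i
        simp only [Pi.add_apply, Pi.zero_apply] at this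
        have key : ∀ x : ZMod 2, 1 + x = 0 → x = 1 := by decide
        exact key _ this
      rw [hc1, ← card_sup]
      have : sup (fun _ => (1 : ZMod 2)) = univ := by
        ext i; simp [mem_sup]
      rw [this]; simp
    simp [this]
  · have h2 := h.min _ hcomp h1
    have h3 := norm_add (fun _ => 1 : V) c
    have hs : sup (fun _ => 1 : V) = univ := by
      ext i; simp [mem_sup]
    rw [← card_sup (fun _ => 1 : V), hs, Finset.univ_inter, card_sup] at h3
    simp only [Finset.card_univ, Fintype.card_fin] at h3
    have h4 : hammingNorm c ≤ 16 := by omega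
    obtain ⟨k, hk⟩ := he
    simp only [mem_insert, mem_singleton]
    omega

/-- Number of words of weight `w`. -/
noncomputable def cnt (C : Submodule (ZMod 2) V) (w : ℕ) : ℕ := by
  classical exact ((wset C).filter fun c => hammingNorm c = w).card

theorem sum_by_weight {C : Submodule (ZMod 2) V} (f : ℕ → ℕ)
    (hw : ∀ c ∈ wset C, hammingNorm c ∈ ({0, 8, 10, 12, 14, 16, 24} : Finset ℕ)) :
    ∑ c ∈ wset C, f (hammingNorm c) =
      cnt C 0 * f 0 + cnt C 8 * f 8 + cnt C 10 * f 10 + cnt C 12 * f 12 + cnt C 14 * f 14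
        + cnt C 16 * f 16 + cnt C 24 * f 24 := by
  classical
  have h1 := Finset.sum_fiberwise_of_maps_to (s := wset C) (t := ({0, 8, 10, 12, 14, 16, 24} : Finset ℕ))
    (g := fun c => hammingNorm c) hw (fun c => f (hammingNorm c))
  rw [← h1]
  have h2 : ∀ w ∈ ({0, 8, 10, 12, 14, 16, 24} : Finset ℕ),
      ∑ c ∈ (wset C).filter (fun c => hammingNorm c = w), f (hammingNorm c) = cnt C w * f w := by
    intro w _
    rw [Finset.sum_congr rfl (fun c hc => by rw [(mem_filter.mp hc).2]), Finset.sum_const, smul_eq_mul]
    simp only [cnt]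
  rw [Finset.sum_congr rfl h2]
  repeat rw [Finset.sum_insert (by simp)]
  rw [Finset.sum_singleton]
  ring

theorem Code.cnt_zero {C : Submodule (ZMod 2) V} : cnt C 0 = 1 := by
  classical
  have : ((wset C).filter fun c => hammingNorm c = 0) = {0} := by
    ext c
    simp only [mem_filter, mem_wset, mem_singleton]
    constructor
    · rintro ⟨_, h0⟩
      exact hammingNorm_eq_zero.mp h0
    · rintro rfl
      exact ⟨C.zero_mem, hammingNorm_zero⟩
  simp only [cnt]
  convert congrArg Finset.card this using 1
  simp

theorem norm_eq_24 {c : V} (h : hammingNorm c = 24) : c = fun _ => 1 := by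
  have h1 : sup c = univ := by
    apply Finset.eq_univ_of_card
    rw [card_sup, h]; simp
  funext i
  exact mem_sup.mp (h1 ▸ mem_univ i)

theorem Code.cnt_24 {C : Submodule (ZMod 2) V} (h : Code C) : cnt C 24 = 1 := by
  classical
  have : ((wset C).filter fun c => hammingNorm c = 24) = {fun _ => 1} := by
    ext c
    simp only [mem_filter, mem_wset, mem_singleton]
    constructor
    · rintro ⟨_, h0⟩
      exact norm_eq_24 h0
    · rintro rfl
      refine ⟨h.ones_mem, ?_⟩
      rw [← card_sup]
      have : sup (fun _ => (1 : ZMod 2)) = univ := by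
        ext i; simp [mem_sup]
      rw [this]; simp
  simp only [cnt]
  convert congrArg Finset.card this using 1
  simp

/-- The weight distribution. -/
theorem Code.distribution {C : Submodule (ZMod 2) V} (h : Code C) :
    cnt C 8 = 759 ∧ cnt C 10 = 0 ∧ cnt C 12 = 2576 ∧ cnt C 14 = 0 ∧ cnt C 16 = 759 := by
  have hw : ∀ c ∈ wset C, hammingNorm c ∈ ({0, 8, 10, 12, 14, 16, 24} : Finset ℕ) :=
    fun c hc => h.weight_list (mem_wset.mp hc)
  have hm : ∀ t ≤ 7, (cnt C 0 * (0 : ℕ).choose t + cnt C 8 * (8 : ℕ).choose t
      + cnt C 10 * (10 : ℕ).choose t + cnt C 12 * (12 : ℕ).choose t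
      + cnt C 14 * (14 : ℕ).choose t + cnt C 16 * (16 : ℕ).choose t
      + cnt C 24 * (24 : ℕ).choose t) * 2 ^ t = (24 : ℕ).choose t * 4096 := by
    intro t ht
    rw [← sum_by_weight (fun w => w.choose t) hw]
    exact h.moment t ht
  have h0 := hm 0 (by norm_num)
  have h1 := hm 1 (by norm_num)
  have h2 := hm 2 (by norm_num)
  have h3 := hm 3 (by norm_num)
  have h4 := hm 4 (by norm_num)
  rw [Code.cnt_zero, h.cnt_24] at h0 h1 h2 h3 h4
  norm_num [Nat.choose] at h0 h1 h2 h3 h4
  omega

/-- Doubly even. -/
theorem Code.four_dvd {C : Submodule (ZMod 2) V} (h : Code C) {c : V} (hc : c ∈ C) :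
    4 ∣ hammingNorm c := by
  classical
  obtain ⟨-, h10, -, h14, -⟩ := h.distribution
  have hl := h.weight_list hc
  have h10' : hammingNorm c ≠ 10 := by
    intro he
    have : c ∈ (wset C).filter fun c => hammingNorm c = 10 :=
      mem_filter.mpr ⟨mem_wset.mpr hc, he⟩
    have hpos := Finset.card_pos.mpr ⟨c, this⟩
    have : 0 < cnt C 10 := by
      simp only [cnt]; convert hpos
    omega
  have h14' : hammingNorm c ≠ 14 := by
    intro he
    have : c ∈ (wset C).filter fun c => hammingNorm c = 14 :=
      mem_filter.mpr ⟨mem_wset.mpr hc, he⟩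
    have hpos := Finset.card_pos.mpr ⟨c, this⟩
    have : 0 < cnt C 14 := by
      simp only [cnt]; convert hpos
    omega
  simp only [mem_insert, mem_singleton] at hl
  omega

end Cfsg.Agent.Lib.AbsGolay

namespace Cfsg.Agent.Lib.AbsGolay

open Finset

theorem sub_eq_add' (a b : V) : a - b = a + b := by
  funext i
  simp only [Pi.sub_apply, Pi.add_apply]
  have : ∀ x y : ZMod 2, x - y = x + y := by decide
  exact this _ _

theorem add_self' (a : V) : a + a = 0 := by
  funext i
  simp only [Pi.add_apply, Pi.zero_apply]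
  have : ∀ x : ZMod 2, x + x = 0 := by decide
  exact this _

theorem eq_of_add_eq_zero' {a b : V} (h : a + b = 0) : a = b := by
  have : a = -b := eq_neg_of_add_eq_zero_left h
  rw [this]
  funext i
  simp only [Pi.neg_apply]
  have : ∀ x : ZMod 2, - x = x := by decide
  exact this _

/-- Two different octads share at most four points. -/
theorem Code.octad_unique {C : Submodule (ZMod 2) V} (h : Code C) {c c' : V} (hc : c ∈ C)
    (hc' : c' ∈ C) (h8 : hammingNorm c = 8) (h8' : hammingNorm c' = 8) {s : Finset (Fin 24)}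
    (hs : s.card = 5) (hsc : s ⊆ sup c) (hsc' : s ⊆ sup c') : c = c' := by
  by_contra hne
  have h0 : c + c' ≠ 0 := fun h0 => hne (eq_of_add_eq_zero' h0)
  have h1 := h.min _ (C.add_mem hc hc') h0
  have h2 := norm_add c c'
  have h3 : s.card ≤ (sup c ∩ sup c').card :=
    Finset.card_le_card (Finset.subset_inter hsc hsc')
  omega

/-- Every five points lie in an octad. -/
theorem Code.octad_exists {C : Submodule (ZMod 2) V} (h : Code C) {s : Finset (Fin 24)}
    (hs : s.card = 5) : ∃ c ∈ C, hammingNorm c = 8 ∧ s ⊆ sup c := by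
  classical
  set Oct := (wset C).filter fun c => hammingNorm c = 8 with hOct
  have hcard : Oct.card = 759 := by
    have := h.distribution.1
    rw [← this]
    simp only [cnt, hOct]
  have hdisj : ∀ x ∈ Oct, ∀ y ∈ Oct, x ≠ y →
      Disjoint (powersetCard 5 (sup x)) (powersetCard 5 (sup y)) := by
    intro x hx y hy hxy
    rw [Finset.disjoint_left]
    intro t ht ht'
    obtain ⟨h1, h2⟩ := mem_powersetCard.mp ht
    obtain ⟨h3, _⟩ := mem_powersetCard.mp ht'
    have hx' := mem_filter.mp hx
    have hy' := mem_filter.mp hy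
    exact hxy (h.octad_unique (mem_wset.mp hx'.1) (mem_wset.mp hy'.1) hx'.2 hy'.2 h2 h1 h3)
  have hsub : Oct.biUnion (fun x => powersetCard 5 (sup x)) ⊆ powersetCard 5 univ := by
    intro t ht
    obtain ⟨x, _, hx⟩ := mem_biUnion.mp ht
    exact mem_powersetCard.mpr ⟨subset_univ _, (mem_powersetCard.mp hx).2⟩
  have hcu : (Oct.biUnion (fun x => powersetCard 5 (sup x))).card = 42504 := by
    rw [Finset.card_biUnion hdisj]
    have : ∀ x ∈ Oct, (powersetCard 5 (sup x)).card = 56 := by
      intro x hx
      rw [Finset.card_powersetCard, card_sup, (mem_filter.mp hx).2]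
      decide
    rw [Finset.sum_congr rfl this, Finset.sum_const, hcard]
    rfl
  have hcu2 : (powersetCard 5 (univ : Finset (Fin 24))).card = 42504 := by
    rw [Finset.card_powersetCard]
    simp only [card_univ, Fintype.card_fin]
    decide
  have heq := Finset.eq_of_subset_of_card_le hsub (by rw [hcu, hcu2])
  have hsm : s ∈ powersetCard 5 (univ : Finset (Fin 24)) :=
    mem_powersetCard.mpr ⟨subset_univ _, hs⟩
  rw [← heq] at hsm
  obtain ⟨x, hx, hxs⟩ := mem_biUnion.mp hsm
  have hx' := mem_filter.mp hx
  exact ⟨x, mem_wset.mp hx'.1, hx'.2, (mem_powersetCard.mp hxs).1⟩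

/-- The weights are `0, 8, 12, 16, 24`. -/
theorem Code.weight_list' {C : Submodule (ZMod 2) V} (h : Code C) {c : V} (hc : c ∈ C) :
    hammingNorm c = 0 ∨ hammingNorm c = 8 ∨ hammingNorm c = 12 ∨ hammingNorm c = 16 ∨
      hammingNorm c = 24 := by
  have h1 := h.four_dvd hc
  have h2 := h.weight_list hc
  simp only [mem_insert, mem_singleton] at h2
  omega

/-- A word of `C` of positive weight contains 5 points of an octad meeting it in at least 5 points. -/
theorem Code.exists_octad_meet {C : Submodule (ZMod 2) V} (h : Code C) {c : V}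
    (hc : 5 ≤ hammingNorm c) :
    ∃ o ∈ C, hammingNorm o = 8 ∧ 5 ≤ (sup c ∩ sup o).card := by
  obtain ⟨s, hs, hs5⟩ := Finset.exists_subset_card_eq (s := sup c) (n := 5) (by rwa [card_sup])
  obtain ⟨o, ho, ho8, hso⟩ := h.octad_exists hs5
  refine ⟨o, ho, ho8, ?_⟩
  rw [← hs5]
  exact Finset.card_le_card (Finset.subset_inter hs hso)

/-- Spanning. -/
theorem Code.span_octads {C : Submodule (ZMod 2) V} (h : Code C) :
    Submodule.span (ZMod 2) {w : V | w ∈ C ∧ hammingNorm w = 8} = C := by
  apply le_antisymm
  · rw [Submodule.span_le]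
    exact fun w hw => hw.1
  set W := Submodule.span (ZMod 2) {w : V | w ∈ C ∧ hammingNorm w = 8} with hW
  have h8 : ∀ c ∈ C, hammingNorm c = 8 → c ∈ W := fun c hc h8 => Submodule.subset_span ⟨hc, h8⟩
  have hstep : ∀ {c o : V}, c ∈ C → o ∈ C → hammingNorm o = 8 → c + o ∈ W → c ∈ W := by
    intro c o _ ho ho8 hco
    have h1 : c = (c + o) + o := by
      rw [add_assoc, add_self', add_zero]
    rw [h1]
    exact W.add_mem hco (h8 o ho ho8)
  have h12 : ∀ c ∈ C, hammingNorm c = 12 → c ∈ W := by
    intro c hc hc12
    obtain ⟨o, ho, ho8, hk⟩ := h.exists_octad_meet (c := c) (by omega)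
    have h1 := norm_add c o
    have hmem := C.add_mem hc ho
    have h2 := h.weight_list' hmem
    apply hstep hc ho ho8
    apply h8 _ hmem
    have h0 : hammingNorm (c + o) ≠ 0 := by
      intro h00
      have := hammingNorm_eq_zero.mp h00
      have := eq_of_add_eq_zero' this
      rw [this] at hc12
      omega
    omega
  have h16 : ∀ c ∈ C, hammingNorm c = 16 → c ∈ W := by
    intro c hc hc16
    obtain ⟨o, ho, ho8, hk⟩ := h.exists_octad_meet (c := c) (by omega)
    have h1 := norm_add c o
    have hmem := C.add_mem hc ho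
    have h2 := h.weight_list' hmem
    apply hstep hc ho ho8
    have h0 : hammingNorm (c + o) ≠ 0 := by
      intro h00
      have := hammingNorm_eq_zero.mp h00
      have := eq_of_add_eq_zero' this
      rw [this] at hc16
      omega
    rcases h2 with h2 | h2 | h2 | h2 | h2
    · exact absurd h2 h0
    · exact h8 _ hmem h2
    · exact h12 _ hmem h2
    · omega
    · omega
  have h24 : ∀ c ∈ C, hammingNorm c = 24 → c ∈ W := by
    intro c hc hc24
    obtain ⟨o, ho, ho8, hk⟩ := h.exists_octad_meet (c := c) (by omega)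
    have h1 := norm_add c o
    have hmem := C.add_mem hc ho
    apply hstep hc ho ho8
    apply h16 _ hmem
    have hle : (sup c ∩ sup o).card ≤ (sup o).card := Finset.card_le_card Finset.inter_subset_right
    have hcs : sup c = univ := by
      apply Finset.eq_univ_of_card
      rw [card_sup, hc24]; simp
    rw [hcs, Finset.univ_inter, card_sup] at h1
    omega
  intro c hc
  rcases h.weight_list' hc with h0 | h0 | h0 | h0 | h0
  · rw [hammingNorm_eq_zero.mp h0]
    exact W.zero_mem
  · exact h8 c hc h0
  · exact h12 c hc h0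
  · exact h16 c hc h0
  · exact h24 c hc h0

end Cfsg.Agent.Lib.AbsGolay

namespace Cfsg.Agent.Lib.AbsGolay

open Finset

/-- The word with support `T`. -/
def wordOfSet (T : Finset (Fin 24)) : V := fun i => if i ∈ T then 1 else 0

theorem sup_wordOfSet (T : Finset (Fin 24)) : sup (wordOfSet T) = T := by
  ext i
  simp only [mem_sup, wordOfSet]
  by_cases h : i ∈ T <;> simp [h]

theorem card_words_of_weight (k : ℕ) :
    (univ.filter fun u : V => hammingNorm u = k).card = (24 : ℕ).choose k := by
  have h : (univ.filter fun u : V => hammingNorm u = k).image sup = powersetCard k univ := by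
    ext T
    simp only [mem_image, mem_filter, mem_univ, true_and, mem_powersetCard, subset_univ]
    constructor
    · rintro ⟨u, hu, rfl⟩
      rwa [card_sup]
    · intro hT
      refine ⟨wordOfSet T, ?_, sup_wordOfSet T⟩
      rw [← card_sup, sup_wordOfSet, hT]
  have hinj : Set.InjOn sup ((univ.filter fun u : V => hammingNorm u = k) : Set V) :=
    fun a _ b _ hab => word_ext_sup hab
  rw [← Finset.card_image_of_injOn hinj, h, Finset.card_powersetCard]
  simp

/-- The cosets of an abstract Golay code. -/
theorem Code.coset {C : Submodule (ZMod 2) V} (h : Code C) (w : V) :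
    (∃ u : V, {u : V | u - w ∈ C ∧ hammingNorm u ≤ 4} = {u} ∧ hammingNorm u ≤ 3) ∨
    ({u : V | u - w ∈ C ∧ hammingNorm u ≤ 4}.ncard = 6 ∧
      ∀ u ∈ {u : V | u - w ∈ C ∧ hammingNorm u ≤ 4}, hammingNorm u = 4 ∧
        ∀ u' ∈ {u : V | u - w ∈ C ∧ hammingNorm u ≤ 4}, u ≠ u' →
          Disjoint (Finset.univ.filter fun i => u i ≠ 0) (Finset.univ.filter fun i => u' i ≠ 0)) := by
  classical
  -- the quotient
  let Q := V ⧸ C
  let mk : V → Q := Submodule.Quotient.mk
  have hmk : ∀ a b : V, mk a = mk b ↔ a + b ∈ C := by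
    intro a b
    rw [Submodule.Quotient.eq, sub_eq_add']
  have : Fintype Q := Fintype.ofFinite Q
  have hcardQ : Fintype.card Q = 4096 := by
    have h1 := Submodule.card_eq_card_quotient_mul_card C
    have h2 : Nat.card V = 2 ^ 24 := by
      simp [Nat.card_eq_fintype_card, ZMod.card]
    have h3 : Nat.card C = 4096 := by
      rw [Module.natCard_eq_pow_finrank (K := ZMod 2), h.dim, Nat.card_zmod]
      norm_num
    rw [h2, h3] at h1
    have h4 : Nat.card (V ⧸ C) = 4096 := by omega
    rw [← Nat.card_eq_fintype_card]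
    exact h4
  -- all words of weight at most 4
  let L : Finset V := univ.filter fun u => hammingNorm u ≤ 4
  let L3 : Finset V := univ.filter fun u => hammingNorm u ≤ 3
  have hcL3 : L3.card = 2325 := by
    have : L3 = (univ.filter fun u : V => hammingNorm u = 0) ∪ (univ.filter fun u : V => hammingNorm u = 1)
        ∪ (univ.filter fun u : V => hammingNorm u = 2) ∪ (univ.filter fun u : V => hammingNorm u = 3) := by
      ext u
      simp only [L3, mem_filter, mem_univ, true_and, mem_union]
      omega
    rw [this, Finset.card_union_of_disjoint, Finset.card_union_of_disjoint, Finset.card_union_of_disjoint]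
    · simp only [card_words_of_weight]
      decide
    · rw [Finset.disjoint_left]; intro u; simp only [mem_filter, mem_univ, true_and]; omega
    · rw [Finset.disjoint_left]; intro u; simp only [mem_union, mem_filter, mem_univ, true_and]; omega
    · rw [Finset.disjoint_left]; intro u; simp only [mem_union, mem_filter, mem_univ, true_and]; omega
  have hcL : L.card = 12951 := by
    have : L = L3 ∪ (univ.filter fun u : V => hammingNorm u = 4) := by
      ext u
      simp only [L, L3, mem_filter, mem_univ, true_and, mem_union]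
      omega
    rw [this, Finset.card_union_of_disjoint, hcL3, card_words_of_weight]
    · decide
    · rw [Finset.disjoint_left]; intro u; simp only [L3, mem_filter, mem_univ, true_and]; omega
  -- two words of low weight in one coset
  have hpair : ∀ u ∈ L, ∀ u' ∈ L, u ≠ u' → mk u = mk u' →
      hammingNorm u = 4 ∧ hammingNorm u' = 4 ∧ Disjoint (sup u) (sup u') := by
    intro u hu u' hu' hne hq
    have hu4 : hammingNorm u ≤ 4 := (mem_filter.mp hu).2
    have hu4' : hammingNorm u' ≤ 4 := (mem_filter.mp hu').2
    have hmem : u + u' ∈ C := (hmk u u').mp hq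
    have h0 : u + u' ≠ 0 := fun h0 => hne (eq_of_add_eq_zero' h0)
    have h8 := h.min _ hmem h0
    have hadd := norm_add u u'
    have hi : (sup u ∩ sup u').card = 0 := by omega
    refine ⟨by omega, by omega, ?_⟩
    rw [Finset.disjoint_iff_inter_eq_empty]
    exact Finset.card_eq_zero.mp hi
  -- the fibres
  let F : Q → Finset V := fun q => L.filter fun u => mk u = q
  have hsum : ∑ q : Q, (F q).card = 12951 := by
    rw [← hcL]
    exact (Finset.card_eq_sum_card_fiberwise (fun _ _ => Finset.mem_coe.mpr (Finset.mem_univ _))).symm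
  -- fibres have size at most 6
  have hle6 : ∀ q : Q, (F q).card ≤ 6 := by
    intro q
    by_contra hgt
    push Not at hgt
    -- two elements at least, so all of weight four, pairwise disjoint
    have hall4 : ∀ u ∈ F q, hammingNorm u = 4 := by
      intro u hu
      obtain ⟨u', hu', hne⟩ := Finset.exists_mem_ne (by omega : 1 < (F q).card) u
      have hu1 := mem_filter.mp hu
      have hu2 := mem_filter.mp hu'
      exact (hpair u hu1.1 u' hu2.1 hne.symm (hu1.2.trans hu2.2.symm)).1
    have hdisj : ∀ x ∈ F q, ∀ y ∈ F q, x ≠ y → Disjoint (sup x) (sup y) := by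
      intro x hx y hy hxy
      have hu1 := mem_filter.mp hx
      have hu2 := mem_filter.mp hy
      exact (hpair x hu1.1 y hu2.1 hxy (hu1.2.trans hu2.2.symm)).2.2
    have hcu := Finset.card_biUnion hdisj
    have hle : ((F q).biUnion sup).card ≤ 24 := by
      simpa using Finset.card_le_univ ((F q).biUnion sup)
    have hval : ∀ x ∈ F q, (sup x).card = 4 := fun x hx => by rw [card_sup]; exact hall4 x hx
    rw [Finset.sum_congr rfl hval, Finset.sum_const, smul_eq_mul] at hcu
    omega
  -- Q₁
  let Q1 : Finset Q := L3.image mk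
  have hinj : Set.InjOn mk (L3 : Set V) := by
    intro a ha b hb hab
    by_contra hne
    have ha3 : hammingNorm a ≤ 3 := (mem_filter.mp (Finset.mem_coe.mp ha)).2
    have hb3 : hammingNorm b ≤ 3 := (mem_filter.mp (Finset.mem_coe.mp hb)).2
    have := hpair a (mem_filter.mpr ⟨mem_univ _, by omega⟩) b (mem_filter.mpr ⟨mem_univ _, by omega⟩) hne hab
    omega
  have hcQ1 : Q1.card = 2325 := by
    rw [Finset.card_image_of_injOn hinj, hcL3]
  have hsingle : ∀ q ∈ Q1, (F q).card = 1 := by
    intro q hq
    obtain ⟨a, ha, rfl⟩ := mem_image.mp hq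
    have ha3 : hammingNorm a ≤ 3 := (mem_filter.mp ha).2
    have : F (mk a) = {a} := by
      ext b
      simp only [F, mem_filter, mem_singleton, L, mem_univ, true_and]
      constructor
      · rintro ⟨hb, hab⟩
        by_contra hne
        have := hpair b (mem_filter.mpr ⟨mem_univ _, hb⟩) a (mem_filter.mpr ⟨mem_univ _, by omega⟩) hne hab
        omega
      · rintro rfl
        exact ⟨by omega, rfl⟩
    rw [this]; simp
  have hrest : ∀ q ∉ Q1, (F q).card = 6 := by
    intro q₀ hq₀
    by_contra hne
    have hlt : (F q₀).card < 6 := lt_of_le_of_ne (hle6 q₀) hne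
    have h1 : ∑ q : Q, (F q).card = ∑ q ∈ Q1, (F q).card + ∑ q ∈ Q1ᶜ, (F q).card :=
      (Finset.sum_add_sum_compl Q1 _).symm
    rw [Finset.sum_congr rfl hsingle] at h1
    have h2 : ∑ q ∈ Q1ᶜ, (F q).card < ∑ q ∈ Q1ᶜ, 6 :=
      Finset.sum_lt_sum (fun q _ => hle6 q) ⟨q₀, Finset.mem_compl.mpr hq₀, hlt⟩
    rw [Finset.sum_const, Finset.card_compl, hcQ1, hcardQ, smul_eq_mul] at h2
    rw [Finset.sum_const, hcQ1, smul_eq_mul, mul_one] at h1
    omega
  -- conclusion
  have hset : {u : V | u - w ∈ C ∧ hammingNorm u ≤ 4} = (F (mk w) : Set V) := by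
    ext u
    simp only [Set.mem_ofPred_eq, F, L, coe_filter, mem_filter, mem_univ, true_and]
    rw [hmk, sub_eq_add', and_comm]
  rw [hset]
  by_cases hq : mk w ∈ Q1
  · left
    obtain ⟨a, ha, hawk⟩ := mem_image.mp hq
    have ha3 : hammingNorm a ≤ 3 := (mem_filter.mp ha).2
    refine ⟨a, ?_, ha3⟩
    have hcard1 := hsingle _ hq
    obtain ⟨b, hb⟩ := Finset.card_eq_one.mp hcard1
    have ham : a ∈ F (mk w) := mem_filter.mpr ⟨mem_filter.mpr ⟨mem_univ _, by omega⟩, hawk⟩
    rw [hb] at ham
    have : a = b := mem_singleton.mp ham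
    rw [hb, this]
    simp
  · right
    have h6 := hrest _ hq
    refine ⟨by rw [Set.ncard_coe_finset]; exact h6, ?_⟩
    intro u hu
    have hu' : u ∈ F (mk w) := Finset.mem_coe.mp hu
    have huL := mem_filter.mp hu'
    have hall : hammingNorm u = 4 := by
      obtain ⟨u', hu'', hne⟩ := Finset.exists_mem_ne (by omega : 1 < (F (mk w)).card) u
      have hu2 := mem_filter.mp hu''
      exact (hpair u huL.1 u' hu2.1 hne.symm (huL.2.trans hu2.2.symm)).1
    refine ⟨hall, ?_⟩
    intro u' hu2 hne
    have hu2' : u' ∈ F (mk w) := Finset.mem_coe.mp hu2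
    have hu3 := mem_filter.mp hu2'
    exact (hpair u huL.1 u' hu3.1 hne (huL.2.trans hu3.2.symm)).2.2

end Cfsg.Agent.Lib.AbsGolay
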